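import Cfsg.Agent.PermB.TwoPrime.Matrix
import Mathlib.GroupTheory.GroupAction.Blocks
import Mathlib.Tactic.FieldSimp
import Mathlib.GroupTheory.GroupAction.Primitive
import Mathlib.GroupTheory.GroupAction.MultipleTransitivity
import Mathlib.RingTheory.RootsOfUnity.Complex

/-! Wielandt's theorem for primitive groups containing an element with two `p`-cycles. -/

set_option autoImplicit false

open Matrix MulAction
open scoped Pointwise

namespace Cfsg.Agent.PermB.TwoP

variable {G α : Type*} [Group G] [Fintype G] [MulAction G α] [Fintype α] {p : ℕ} [Fact p.Prime]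
  {e : ZMod p × Fin 2 ≃ α}

omit [Fintype G] in
theorem card_points (e : ZMod p × Fin 2 ≃ α) : (Fintype.card α : ℚ) = 2 * p := by
  rw [← Fintype.card_congr e, Fintype.card_prod, ZMod.card, Fintype.card_fin]
  push_cast
  ring

/-- The invariant idempotent generated by the signed vector. -/
theorem exists_idem [IsPretransitive G α] (hc : Coords G e) :
    ∃ E : Matrix α α ℚ, Inv G E ∧ Eᵀ = E ∧ E * E = E ∧ theta e E = 1 ∧ rowSum e E = 0 ∧
      ∀ M, Inv G M → M * E = theta e M • E ∧ E * M = theta e M • E := by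
  classical
  let K : Matrix α α ℚ := Matrix.of fun x y => ∑ g : G, sgn e (g • x) * sgn e (g • y)
  have hKapp : ∀ x y, K x y = ∑ g : G, sgn e (g • x) * sgn e (g • y) := fun x y => rfl
  have hKi : Inv G K := by
    intro h x y
    rw [hKapp, hKapp, ← Equiv.sum_comp (Equiv.mulRight h⁻¹)]
    simp [mul_smul]
  have hKt : Kᵀ = K := by
    ext x y
    simp only [Matrix.transpose_apply, hKapp, mul_comm]
  have hMK : ∀ M, Inv G M → M * K = theta e M • K := by
    intro M hM
    ext x y
    simp only [Matrix.mul_apply, Matrix.smul_apply, smul_eq_mul, hKapp, Finset.mul_sum]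
    rw [Finset.sum_comm]
    refine Finset.sum_congr rfl fun g _ => ?_
    calc ∑ z, M x z * (sgn e (g • z) * sgn e (g • y))
        = (∑ z, M (g • x) (g • z) * sgn e (g • z)) * sgn e (g • y) := by
          rw [Finset.sum_mul]; exact Finset.sum_congr rfl fun z _ => by rw [hM g]; ring
      _ = (∑ z, M (g • x) z * sgn e z) * sgn e (g • y) := by
          congr 1; exact Equiv.sum_comp (MulAction.toPerm g) fun z => M (g • x) z * sgn e z
      _ = theta e M * (sgn e (g • x) * sgn e (g • y)) := by rw [theta_eq hc hM]; ring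
  have hKM : ∀ M, Inv G M → K * M = theta e M • K := by
    intro M hM
    apply Matrix.transpose_injective
    rw [Matrix.transpose_mul, hKt, hMK _ (inv_transpose hM), Matrix.transpose_smul, hKt,
      theta_transpose hc hM]
  have hpos : 0 < theta e K := by
    have h1 : ∑ x, sgn e x * (∑ y, K x y * sgn e y) = theta e K * Fintype.card α := by
      simp only [theta_eq hc hKi, ← mul_assoc, mul_comm _ (theta e K)]
      simp only [mul_assoc, sgn_sq, mul_one, Finset.sum_const, Finset.card_univ, nsmul_eq_mul]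
      ring
    have h2 : ∑ x, sgn e x * (∑ y, K x y * sgn e y)
        = ∑ g : G, (∑ x, sgn e x * sgn e (g • x)) ^ 2 := by
      simp only [hKapp, Finset.sum_mul, Finset.mul_sum, sq]
      rw [Finset.sum_congr rfl fun x _ => Finset.sum_comm, Finset.sum_comm]
      refine Finset.sum_congr rfl fun g _ => Finset.sum_congr rfl fun x _ =>
        Finset.sum_congr rfl fun y _ => ?_
      ring
    have h3 : 0 < ∑ g : G, (∑ x, sgn e x * sgn e (g • x)) ^ 2 := by
      refine Finset.sum_pos' (fun g _ => sq_nonneg _) ⟨1, Finset.mem_univ _, ?_⟩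
      simp only [one_smul, sgn_sq, Finset.sum_const, Finset.card_univ, nsmul_eq_mul, mul_one]
      rw [card_points e]
      have : (0 : ℚ) < p := Nat.cast_pos.2 (Fact.out : p.Prime).pos
      positivity
    rw [← h2, h1, card_points e] at h3
    exact pos_of_mul_pos_left h3 (by positivity)
  have hK0 : rowSum e K = 0 := by
    rw [← row_sum hKi (e (0, 0))]
    simp only [hKapp]
    rw [Finset.sum_comm]
    refine Finset.sum_eq_zero fun g _ => ?_
    rw [← Finset.mul_sum]
    refine mul_eq_zero_of_right _ ?_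
    exact (Equiv.sum_comp (MulAction.toPerm g) (sgn e)).trans sum_sgn
  have hKK := hMK K hKi
  refine ⟨(theta e K)⁻¹ • K, fun g x y => ?_, ?_, ?_, ?_, ?_, fun M hM => ⟨?_, ?_⟩⟩
  · simp only [Matrix.smul_apply, hKi g]
  · rw [Matrix.transpose_smul, hKt]
  · rw [Matrix.smul_mul, Matrix.mul_smul, hKK, smul_smul, smul_smul, mul_assoc,
      inv_mul_cancel₀ hpos.ne', mul_one]
  · unfold theta
    simp only [Matrix.smul_apply, smul_eq_mul, ← Finset.mul_sum, ← mul_sub]
    exact inv_mul_cancel₀ hpos.ne'
  · unfold rowSum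
    simp only [Matrix.smul_apply, smul_eq_mul, ← Finset.mul_sum, ← mul_add]
    exact mul_eq_zero_of_right _ hK0
  · rw [Matrix.mul_smul, hMK M hM, smul_smul, smul_smul, mul_comm]
  · rw [Matrix.smul_mul, hKM M hM, smul_smul, smul_smul, mul_comm]

omit [Fintype G] in
/-- A symmetric idempotent of trace zero vanishes. -/
theorem eq_zero_of_trace_eq_zero {D : Matrix α α ℚ} (hs : Dᵀ = D) (hi : D * D = D)
    (ht : D.trace = 0) : D = 0 := by
  have h : ∑ x, ∑ y, D x y ^ 2 = 0 := by
    rw [← ht]
    refine Finset.sum_congr rfl fun x _ => ?_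
    show _ = D x x
    conv_rhs => rw [← hi, Matrix.mul_apply]
    refine Finset.sum_congr rfl fun y _ => ?_
    have h' : D y x = D x y := congrFun (congrFun hs x) y
    rw [h', sq]
  ext x y
  have h1 := (Finset.sum_eq_zero_iff_of_nonneg
    fun x _ => Finset.sum_nonneg fun y _ => sq_nonneg (D x y)).1 h x (Finset.mem_univ x)
  exact pow_eq_zero_iff two_ne_zero |>.1
    ((Finset.sum_eq_zero_iff_of_nonneg fun y _ => sq_nonneg (D x y)).1 h1 y (Finset.mem_univ y))

omit [Fintype G] in
/-- No suborbit of a primitive group of composite degree has one point. -/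
theorem orbit_card_ne_one [Finite G] [FaithfulSMul G α] (hprim : IsPreprimitive G α)
    (e : ZMod p × Fin 2 ≃ α) {a b : α} (hb : b ≠ a) :
    Nat.card (orbit (stabilizer G a) b) ≠ 1 := by
  classical
  intro h1
  haveI := hprim
  haveI : Subsingleton (orbit (stabilizer G a) b) := (Nat.card_eq_one_iff_unique.1 h1).1
  have hfix : ∀ g ∈ stabilizer G a, g • b = b := fun g hg =>
    congrArg Subtype.val (Subsingleton.elim
      (⟨g • b, ⟨⟨g, hg⟩, rfl⟩⟩ : orbit (stabilizer G a) b) ⟨b, mem_orbit_self b⟩)
  have hn : Fintype.card α = 2 * p := by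
    rw [← Fintype.card_congr e, Fintype.card_prod, ZMod.card, Fintype.card_fin, mul_comm]
  haveI : Nontrivial α := ⟨⟨b, a, hb⟩⟩
  have hco : IsCoatom (stabilizer G a) := IsPreprimitive.isCoatom_stabilizer_of_isPreprimitive G a
  have hle : stabilizer G a ≤ stabilizer G b := fun g hg => hfix g hg
  have heq : stabilizer G b = stabilizer G a := by
    rcases lt_or_eq_of_le hle with hlt | hlt
    · exact absurd (hco.2 _ hlt) (by
        intro htop
        obtain ⟨g, hg⟩ := MulAction.exists_smul_eq G b a
        have : g ∈ stabilizer G b := htop ▸ Subgroup.mem_top g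
        exact hb ((mem_stabilizer_iff.1 this).symm.trans hg))
    · exact hlt.symm
  obtain ⟨g, hg⟩ := MulAction.exists_smul_eq G a b
  have hnorm : g ∈ Subgroup.normalizer (stabilizer G a : Set G) := by
    rw [Subgroup.mem_normalizer_iff]
    intro h
    constructor
    · intro hh
      rw [← heq, mem_stabilizer_iff, ← hg, mul_smul, mul_smul, inv_smul_smul, hh]
    · intro hh
      have := (mem_stabilizer_iff.1 (heq.symm ▸ hh : g * h * g⁻¹ ∈ stabilizer G b))
      rw [← hg, mul_smul, mul_smul, inv_smul_smul] at this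
      exact MulAction.injective g this
  have hgnot : g ∉ stabilizer G a := fun h => hb (hg.symm.trans h)
  have htop : Subgroup.normalizer (stabilizer G a : Set G) = ⊤ :=
    hco.2 _ (SetLike.lt_iff_le_and_exists.2 ⟨Subgroup.le_normalizer, g, hnorm, hgnot⟩)
  have hnml : (stabilizer G a).Normal := Subgroup.normalizer_eq_top_iff.1 htop
  have hbot : stabilizer G a = ⊥ := by
    rw [Subgroup.eq_bot_iff_forall]
    intro k hk
    refine FaithfulSMul.eq_of_smul_eq_smul (α := α) fun z => ?_
    rw [one_smul]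
    obtain ⟨t, rfl⟩ := MulAction.exists_smul_eq G a z
    have h2 := mem_stabilizer_iff.1 (hnml.conj_mem k hk t⁻¹)
    rw [mul_smul, mul_smul, inv_inv, inv_smul_eq_iff] at h2
    exact h2
  have hcard : Nat.card G = 2 * p := by
    rw [← hn, ← Nat.card_eq_fintype_card]
    have := Nat.card_congr (MulAction.orbitEquivQuotientStabilizer G a)
    rw [orbit_eq_univ, Nat.card_congr (Equiv.Set.univ α)] at this
    rw [this, hbot]
    exact (Nat.card_congr (QuotientGroup.quotientBot.toEquiv)).symm
  haveI : Fact (Nat.Prime 2) := ⟨Nat.prime_two⟩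
  obtain ⟨t, ht⟩ := exists_prime_orderOf_dvd_card' (G := G) 2 (hcard ▸ dvd_mul_right 2 p)
  have hzp : Subgroup.zpowers t = ⊤ := hco.2 _ (by
    rw [hbot, bot_lt_iff_ne_bot]
    intro h
    rw [Subgroup.zpowers_eq_bot] at h
    rw [h, orderOf_one] at ht
    omega)
  have : Nat.card (Subgroup.zpowers t) = Nat.card G := by rw [hzp, Subgroup.card_top]
  rw [Nat.card_zpowers, ht, hcard] at this
  have := (Fact.out : p.Prime).two_le
  omega

variable (G) in
/-- The matrix of the orbital of `(a, b)`. -/
noncomputable def orbital (a b : α) : Matrix α α ℚ :=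
  Matrix.of fun x y => @ite ℚ (∃ g : G, g • a = x ∧ g • b = y) (Classical.propDecidable _) 1 0

omit [Fintype G] [Fintype α] in
theorem orbital_inv (a b : α) : Inv G (orbital G a b) := by
  classical
  intro h x y
  refine if_congr ⟨?_, ?_⟩ rfl rfl
  · rintro ⟨g, hx, hy⟩
    exact ⟨h⁻¹ * g, by rw [mul_smul, hx, inv_smul_smul], by rw [mul_smul, hy, inv_smul_smul]⟩
  · rintro ⟨g, hx, hy⟩
    exact ⟨h * g, by rw [mul_smul, hx], by rw [mul_smul, hy]⟩

omit [Fintype G] [Fintype α] in
theorem orbital_row (a b y : α) [Decidable (y ∈ orbit (stabilizer G a) b)] :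
    orbital G a b a y = if y ∈ orbit (stabilizer G a) b then 1 else 0 := by
  classical
  refine if_congr ⟨?_, ?_⟩ rfl rfl
  · rintro ⟨g, hx, hy⟩
    exact ⟨⟨g, hx⟩, hy⟩
  · rintro ⟨g, hy⟩
    exact ⟨g, g.2, hy⟩

omit [Fintype G] [Fintype α] in
theorem orbital_cases (a b x y : α) : orbital G a b x y = 0 ∨
    (orbital G a b x y = 1 ∧ ∃ g : G, g • a = x ∧ g • b = y) := by
  classical
  by_cases h : ∃ g : G, g • a = x ∧ g • b = y
  · exact Or.inr ⟨if_pos h, h⟩
  · exact Or.inl (if_neg h)

omit [Fintype G] [Fintype α] in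
theorem orbital_eq_one {a b x y : α} (g : G) (hx : g • a = x) (hy : g • b = y) :
    orbital G a b x y = 1 := by
  classical
  exact if_pos ⟨g, hx, hy⟩

omit [Fintype G] in
theorem diag_const [IsPretransitive G α] {M : Matrix α α ℚ} (hM : Inv G M) (x y : α) :
    M x x = M y y := by
  obtain ⟨g, rfl⟩ := MulAction.exists_smul_eq G y x
  exact hM g y y

/-- The classification for a group with two cycle coordinates. -/
theorem classify [FaithfulSMul G α] (hprim : IsPreprimitive G α) (hc : Coords G e) (a₀ : α) :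
    IsMultiplyPretransitive G α 2 ∨
      (Nat.card (orbitRel.Quotient (stabilizer G a₀) α) = 3 ∧
        ∃ a : ℕ, 0 < a ∧ p = 2 * a ^ 2 + 2 * a + 1 ∧ ∀ b : α, b ≠ a₀ →
          Nat.card (orbit (stabilizer G a₀) b) = a * (2 * a + 1) ∨
            Nat.card (orbit (stabilizer G a₀) b) = (a + 1) * (2 * a + 1)) := by
  classical
  haveI := hprim
  have hp : p.Prime := Fact.out
  have hpQ : (p : ℚ) ≠ 0 := Nat.cast_ne_zero.2 hp.ne_zero
  have hnQ := card_points e
  obtain ⟨E, hEi, hEs, hEE, hEθ, hE0, hEM⟩ := exists_idem (G := G) hc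
  obtain ⟨ζ, hζ⟩ : ∃ ζ : ℂ, IsPrimitiveRoot ζ p := ⟨_, Complex.isPrimitiveRoot_exp p hp.ne_zero⟩
  have hQQ : four e ζ E * four e ζ E = four e ζ E := by rw [← four_mul hζ hc hEi, hEE]
  have hEtau : ∑ j, tau e E j = 1 := by rw [sum_tau hc hEi, hE0, hEθ, zero_add]
  obtain ⟨r, hr, hr012⟩ : ∃ r : ℚ, (four e ζ E).trace = (r : ℂ) ∧ (r = 0 ∨ r = 1 ∨ r = 2) := by
    rcases trace_idem hQQ with h | h | h
    · exact ⟨0, by rw [h, Rat.cast_zero], Or.inl rfl⟩
    · exact ⟨1, by rw [h, Rat.cast_one], Or.inr (Or.inl rfl)⟩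
    · exact ⟨2, by rw [h]; norm_num, Or.inr (Or.inr rfl)⟩
  obtain ⟨hEt0, hEtj⟩ :=
    eq_of_sum_eq hζ (tau e E) r ((trace_four (e := e) (M := E) ζ).symm.trans hr)
  rw [hEtau] at hEt0 hEtj
  have hdiag : ∀ x, E x x = tau e E 0 / 2 := fun x => by
    unfold tau
    rw [diag_const hEi (e (0, 1)) (e (0, 0)), diag_const hEi x (e (0, 0))]
    ring
  have htrE : E.trace = p * tau e E 0 := by
    simp only [Matrix.trace, Matrix.diag_apply, hdiag, Finset.sum_const, Finset.card_univ,
      nsmul_eq_mul, hnQ]
    ring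
  have hEsym : ∀ x y, E x y = E y x := fun x y => (congrFun (congrFun hEs x) y).symm
  have hErow : ∀ x, ∑ y, E x y = 0 := fun x => (row_sum hEi x).trans hE0
  rcases hr012 with rfl | rfl | rfl
  · -- the idempotent is the projection on the signed vector: a block system
    exfalso
    let D : Matrix α α ℚ := Matrix.of fun x y => E x y - (2 * p : ℚ)⁻¹ * (sgn e x * sgn e y)
    have hEu : ∀ x, ∑ y, E x y * sgn e y = sgn e x := fun x => by
      rw [theta_eq hc hEi, hEθ, one_mul]
    have hD : D = 0 := by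
      refine eq_zero_of_trace_eq_zero ?_ ?_ ?_
      · ext x y; simp [D, hEsym x y, mul_comm]
      · ext x y
        simp only [D, Matrix.mul_apply, Matrix.of_apply, sub_mul, mul_sub, Finset.sum_sub_distrib]
        have e1 : ∑ z, E x z * E z y = E x y := congrFun (congrFun hEE x) y
        have e2 : ∑ z, E x z * ((2 * p : ℚ)⁻¹ * (sgn e z * sgn e y))
            = (2 * p : ℚ)⁻¹ * (sgn e x * sgn e y) := by
          rw [← hEu x, Finset.sum_mul, Finset.mul_sum]
          exact Finset.sum_congr rfl fun z _ => by ring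
        have e3 : ∑ z, (2 * p : ℚ)⁻¹ * (sgn e x * sgn e z) * E z y
            = (2 * p : ℚ)⁻¹ * (sgn e x * sgn e y) := by
          rw [← hEu y, Finset.mul_sum, Finset.mul_sum]
          exact Finset.sum_congr rfl fun z _ => by rw [hEsym z y]; ring
        have e4 : ∑ z, (2 * p : ℚ)⁻¹ * (sgn e x * sgn e z)
              * ((2 * p : ℚ)⁻¹ * (sgn e z * sgn e y))
            = (2 * p : ℚ)⁻¹ * (sgn e x * sgn e y) := by
          have hterm : ∀ z, (2 * p : ℚ)⁻¹ * (sgn e x * sgn e z)
              * ((2 * p : ℚ)⁻¹ * (sgn e z * sgn e y))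
              = (2 * p : ℚ)⁻¹ * (2 * p : ℚ)⁻¹ * (sgn e x * sgn e y) := fun z => by
            linear_combination ((2 * p : ℚ)⁻¹ * (2 * p : ℚ)⁻¹ * sgn e x * sgn e y) * sgn_sq (e := e) z
          simp only [hterm, Finset.sum_const, Finset.card_univ, nsmul_eq_mul, hnQ]
          field_simp
        linarith
      · simp only [Matrix.trace, Matrix.diag_apply, D, Matrix.of_apply, sgn_sq, mul_one,
          Finset.sum_sub_distrib, Finset.sum_const, Finset.card_univ, nsmul_eq_mul, hnQ, hdiag]
        rw [hEt0]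
        field_simp
        ring
    have hEx : ∀ x y, sgn e x * sgn e y = 2 * p * E x y := fun x y => by
      have h : E x y - (2 * p : ℚ)⁻¹ * (sgn e x * sgn e y) = 0 := congrFun (congrFun hD x) y
      rw [sub_eq_zero.1 h]
      field_simp
    have hpres : ∀ (g : G) x y, sgn e (g • x) * sgn e (g • y) = sgn e x * sgn e y := fun g x y => by
      rw [hEx, hEx, hEi g]
    let B : Set α := {x | sgn e x = 1}
    have hB : IsBlock G B := by
      rw [isBlock_iff_smul_eq_or_disjoint]
      intro g
      by_cases hd : Disjoint (g • B) B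
      · exact Or.inr hd
      left
      obtain ⟨z, hz1, hz2⟩ := Set.not_disjoint_iff.1 hd
      obtain ⟨x, hx, rfl⟩ := hz1
      simp only [B, Set.mem_setOf_eq] at hx hz2
      ext z
      constructor
      · rintro ⟨y, hy, rfl⟩
        have := hpres g x y
        rw [hz2, hx, show sgn e y = 1 from hy] at this
        simpa [B] using this
      · intro hz
        refine ⟨g⁻¹ • z, ?_, smul_inv_smul g z⟩
        have := hpres g x (g⁻¹ • z)
        rw [smul_inv_smul, hz2, hx, show sgn e z = 1 from hz] at this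
        simpa [B] using this.symm
    have hm : ∀ j, e (j, 0) ∈ B := fun j => by simp [B, sgn]
    rcases hprim.isTrivialBlock_of_isBlock hB with h | h
    · exact zero_ne_one (congrArg Prod.fst (e.injective (h (hm 0) (hm 1))))
    · have h01 : e (0, 1) ∈ B := h ▸ Set.mem_univ _
      norm_num [B, sgn] at h01
  · -- rank three
    have hdiag' : ∀ x, E x x = 1 / 2 := fun x => by
      rw [hdiag, hEt0]; simp
    have hj0 : ∀ j, j ≠ 0 → E (e (0, 0)) (e (j, 0)) + E (e (0, 1)) (e (j, 1)) = 0 := fun j hj => by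
      have := hEtj j hj
      simpa [tau] using this
    right
    set x : α → ℚ := fun b => theta e (orbital G a₀ b) with hx
    set d : α → ℕ := fun b => Nat.card (orbit (stabilizer G a₀) b) with hd
    have hd0 : ∀ b, 0 < d b := fun b => by
      haveI : Nonempty (orbit (stabilizer G a₀) b) := ⟨⟨b, mem_orbit_self b⟩⟩
      exact Nat.card_pos
    have hrow : ∀ b, rowSum e (orbital G a₀ b) = d b := fun b => by
      rw [← row_sum (orbital_inv a₀ b) a₀]
      simp only [orbital_row, Finset.sum_boole, hd]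
      rw [Nat.card_eq_fintype_card, ← Set.toFinset_card]
      congr 2
      ext y
      simp
    have hxc : ∀ b, x b = 2 * d b * E a₀ b := by
      intro b
      have h := congrFun (congrFun (hEM _ (inv_transpose (orbital_inv (G := G) a₀ b))).2 a₀) a₀
      rw [theta_transpose hc (orbital_inv a₀ b), Matrix.smul_apply, hdiag', Matrix.mul_apply,
        smul_eq_mul] at h
      have hterm : ∀ y, E a₀ y * (orbital G a₀ b)ᵀ y a₀ = E a₀ b * orbital G a₀ b a₀ y := by
        intro y
        rw [Matrix.transpose_apply]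
        rcases orbital_cases (G := G) a₀ b a₀ y with h0 | ⟨h0, g, hg1, hg2⟩
        · rw [h0, mul_zero, mul_zero]
        · rw [h0, ← hg2]
          conv_lhs => rw [← hg1, hEi g]
      simp only [hterm, ← Finset.mul_sum, row_sum (e := e) (orbital_inv a₀ b), hrow] at h
      show theta e (orbital G a₀ b) = _
      linarith
    have hprod : ∀ b b', tau e (orbital G a₀ b * (orbital G a₀ b')ᵀ) 0
        = 2 * ∑ y, orbital G a₀ b a₀ y * orbital G a₀ b' a₀ y := fun b b' => by
      unfold tau
      have hI := inv_mul (orbital_inv (G := G) a₀ b) (inv_transpose (orbital_inv a₀ b'))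
      rw [diag_const hI (e (0, 1)) (e (0, 0)), diag_const hI (e (0, 0)) a₀, ← two_mul,
        Matrix.mul_apply]
      rfl
    have htau0 : ∀ b, b ≠ a₀ → tau e (orbital G a₀ b) 0 = 0 := fun b hb => by
      have h : ∀ z, orbital G a₀ b z z = 0 := fun z => by
        refine (orbital_cases (G := G) a₀ b z z).resolve_right ?_
        rintro ⟨-, g, h1, h2⟩
        exact hb (MulAction.injective g (h2.trans h1.symm))
      unfold tau
      rw [h, h, add_zero]
    have htr1 : (four e ζ E).trace = 1 := by rw [hr, Rat.cast_one]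
    have hid : ∀ b b', b ≠ a₀ → b' ≠ a₀ →
        2 * ∑ y, orbital G a₀ b a₀ y * orbital G a₀ b' a₀ y
          = ∑ j, tau e (orbital G a₀ b) j * tau e (orbital G a₀ b') j + 2 * x b * x b' := by
      intro b b' hb hb'
      have hA := orbital_inv (G := G) a₀ b
      have hB := inv_transpose (orbital_inv (G := G) a₀ b')
      rw [← hprod, tau_mul hζ hc hEi hEE htr1 hA hB (hEM _ hA).1 (hEM _ hA).2 (hEM _ hB).1
        (hEM _ hB).2, theta_transpose hc (orbital_inv a₀ b'), htau0 b hb]
      have ht : ∀ j, tau e (orbital G a₀ b')ᵀ (-j) = tau e (orbital G a₀ b') j := fun j => by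
        unfold tau
        simp only [Matrix.transpose_apply, shift_zero hc (orbital_inv a₀ b') (-j), zero_sub,
          neg_neg]
      have h0 : tau e (orbital G a₀ b')ᵀ 0 = 0 := by
        have := ht 0
        rw [neg_zero, htau0 b' hb'] at this
        exact this
      simp only [ht, h0, mul_zero, sub_zero, hx]
    have hsum : ∀ b, ∑ j, tau e (orbital G a₀ b) j = d b + x b := fun b => by
      rw [sum_tau hc (orbital_inv a₀ b), hrow]
    have hsq : ∀ b, b ≠ a₀ →
        ∑ j, tau e (orbital G a₀ b) j * tau e (orbital G a₀ b) j = 2 * d b - 2 * x b * x b := by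
      intro b hb
      have h := hid b b hb hb
      have h1 : ∀ y, orbital G a₀ b a₀ y * orbital G a₀ b a₀ y = orbital G a₀ b a₀ y := fun y => by
        rcases orbital_cases (G := G) a₀ b a₀ y with h0 | ⟨h0, -⟩ <;> simp [h0]
      rw [Finset.sum_congr rfl fun y _ => h1 y, row_sum (e := e) (orbital_inv a₀ b), hrow] at h
      linarith
    have hpair : ∀ (u v : α), u ≠ v → ∃ b, b ≠ a₀ ∧ E a₀ b = E u v ∧ orbital G a₀ b u v = 1 := by
      intro u v huv
      obtain ⟨g, rfl⟩ := MulAction.exists_smul_eq G a₀ u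
      refine ⟨g⁻¹ • v, fun h => huv (by rw [← h, smul_inv_smul]), ?_,
        orbital_eq_one g rfl (smul_inv_smul g v)⟩
      rw [← hEi g a₀ (g⁻¹ • v), smul_inv_smul]
    have hval : ∀ b u v, orbital G a₀ b u v ≠ 0 → E u v = E a₀ b := by
      intro b u v h
      obtain ⟨-, g, rfl, rfl⟩ := (orbital_cases (G := G) a₀ b u v).resolve_left h
      exact hEi g a₀ b
    have hnz : ∀ b, b ≠ a₀ → E a₀ b ≠ 0 := by
      intro b hb hb0
      have hx0 : x b = 0 := by rw [hxc, hb0, mul_zero]
      set A := orbital G a₀ b with hA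
      have hAi : Inv G A := orbital_inv a₀ b
      have hnn : ∀ j, 0 ≤ tau e A j * (2 - tau e A j) ∧
          (tau e A j * (2 - tau e A j) = 0 → A (e (0, 0)) (e (j, 0)) = A (e (0, 1)) (e (j, 1))) := by
        intro j
        unfold tau
        rcases orbital_cases (G := G) a₀ b (e (0, 0)) (e (j, 0)) with h0 | ⟨h0, -⟩ <;>
        rcases orbital_cases (G := G) a₀ b (e (0, 1)) (e (j, 1)) with h1 | ⟨h1, -⟩ <;>
        simp only [hA, h0, h1] <;> norm_num
      have hzero : ∑ j, tau e A j * (2 - tau e A j) = 0 := by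
        simp only [mul_sub, Finset.sum_sub_distrib, ← Finset.sum_mul, hsq b hb, hA, hsum b, hx0]
        ring
      have heq : ∀ j, A (e (0, 0)) (e (j, 0)) = A (e (0, 1)) (e (j, 1)) := fun j => (hnn j).2
        ((Finset.sum_eq_zero_iff_of_nonneg fun j _ => (hnn j).1).1 hzero j (Finset.mem_univ j))
      have hθA : theta e A = 0 := hx0
      have hM : four e ζ A = (four e ζ A).trace • (1 - four e ζ E) := by
        have := eq_smul_add hQQ htr1 (x := (0 : ℂ)) (M := four e ζ A)
          (by rw [← four_mul hζ hc hEi, (hEM _ hAi).1, four_smul, hθA, Rat.cast_zero])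
          (by rw [← four_mul hζ hc hAi, (hEM _ hAi).2, four_smul, hθA, Rat.cast_zero])
        simpa using this
      have h00 := congrFun (congrFun hM 0) 0
      simp only [Matrix.smul_apply, Matrix.sub_apply, Matrix.one_apply_eq, smul_eq_mul] at h00
      have hhalf : (four e ζ A).trace = 2 * four e ζ A 0 0 := by
        simp only [Matrix.trace_fin_two, four, Matrix.of_apply, heq]
        ring
      have ht0 : (four e ζ A).trace ≠ 0 := by
        intro h
        have h' := (eq_of_sum_eq hζ (tau e A) 0 (by rw [← trace_four, h, Rat.cast_zero])).1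
        rw [htau0 b hb, hsum b, hx0] at h'
        simp only [add_zero, sub_zero, zero_add] at h'
        rcases div_eq_zero_iff.1 h'.symm with h'' | h''
        · exact (hd0 b).ne' (Nat.cast_eq_zero.1 h'')
        · exact hpQ h''
      have hh : four e ζ E 0 0 = 1 / 2 := by
        rw [hhalf] at h00 ht0
        have : four e ζ A 0 0 * (2 * four e ζ E 0 0 - 1) = 0 := by linear_combination h00
        have h2 := (mul_eq_zero.1 this).resolve_left (fun h => ht0 (by rw [h, mul_zero]))
        linear_combination h2 / 2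
      have hsumE : ∑ j, E (e (0, 0)) (e (j, 0)) = 1 / 2 := by
        have h1 := hEθ
        have h2 := hE0
        unfold theta at h1
        unfold rowSum at h2
        linarith
      obtain ⟨-, hE00⟩ := eq_of_sum_eq hζ (fun j => E (e (0, 0)) (e (j, 0))) (1 / 2) (by
        have : four e ζ E 0 0 = ∑ j, (E (e (0, 0)) (e (j, 0)) : ℂ) * ζ ^ j.val := rfl
        rw [← this, hh]; norm_num)
      have hzeroE : ∀ j, j ≠ 0 → E (e (0, 0)) (e (j, 0)) = 0 ∧ E (e (0, 1)) (e (j, 1)) = 0 := by
        intro j hj
        have h1 : E (e (0, 0)) (e (j, 0)) = _ := hE00 j hj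
        rw [hsumE, sub_self, zero_div] at h1
        exact ⟨h1, by have := hj0 j hj; linarith⟩
      obtain ⟨b', hb', hc'⟩ : ∃ b', b' ≠ a₀ ∧ E a₀ b' ≠ 0 := by
        by_contra hall
        push Not at hall
        have := hErow a₀
        rw [Finset.sum_eq_single a₀ (fun y _ hy => hall y hy) (by simp), hdiag'] at this
        norm_num at this
      have hn0 : ∀ j, tau e (orbital G a₀ b') j = 0 := by
        intro j
        by_cases hj : j = 0
        · rw [hj, htau0 b' hb']
        have : ∀ a : Fin 2, orbital G a₀ b' (e (0, a)) (e (j, a)) = 0 := by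
          intro a
          by_contra h
          refine hc' ?_
          rw [← hval b' _ _ h]
          fin_cases a
          · exact (hzeroE j hj).1
          · exact (hzeroE j hj).2
        unfold tau
        rw [this, this, add_zero]
      have h1 := hsum b'
      have h2 := hsq b' hb'
      simp only [hn0, mul_zero, Finset.sum_const_zero] at h1 h2
      have hxd : x b' = -(d b' : ℚ) := by linarith
      rw [hxd] at h2
      have hd1 : (d b' : ℚ) = 1 := by
        have hdne : (d b' : ℚ) ≠ 0 := Nat.cast_ne_zero.2 (hd0 b').ne'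
        have : (d b' : ℚ) * (1 - d b') = 0 := by linarith
        linarith [(mul_eq_zero.1 this).resolve_left hdne]
      exact orbit_card_ne_one hprim e hb' (Nat.cast_eq_one.1 hd1)
    have hsame : ∀ b b', b ≠ a₀ → b' ≠ a₀ → 0 < E a₀ b * E a₀ b' →
        b' ∈ orbit (stabilizer G a₀) b := by
      intro b b' hb hb' hpos
      have h := hid b b' hb hb'
      have hnn : 0 ≤ ∑ j, tau e (orbital G a₀ b) j * tau e (orbital G a₀ b') j := by
        have h01 : ∀ b u v, 0 ≤ orbital G a₀ b u v := fun b u v => by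
          rcases orbital_cases (G := G) a₀ b u v with h0 | ⟨h0, -⟩ <;> simp [h0]
        exact Finset.sum_nonneg fun j _ =>
          mul_nonneg (add_nonneg (h01 _ _ _) (h01 _ _ _)) (add_nonneg (h01 _ _ _) (h01 _ _ _))
      have hxx : 0 < x b * x b' := by
        rw [hxc, hxc]
        have h1 : (0 : ℚ) < d b * d b' := mul_pos (Nat.cast_pos.2 (hd0 b)) (Nat.cast_pos.2 (hd0 b'))
        nlinarith [mul_pos h1 hpos]
      obtain ⟨y, -, hy⟩ := Finset.exists_ne_zero_of_sum_ne_zero
        (f := fun y => orbital G a₀ b a₀ y * orbital G a₀ b' a₀ y) (s := Finset.univ)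
        (by intro h0; rw [h0] at h; linarith)
      simp only [orbital_row, mul_ne_zero_iff, ne_eq, ite_eq_right_iff, one_ne_zero, imp_false,
        not_not] at hy
      rw [← orbit_eq_iff, ← orbit_eq_iff.2 hy.1, orbit_eq_iff.2 hy.2]
    -- both signs occur
    obtain ⟨u₀, hu₀, hcu₀, -⟩ := hpair (e ((0 : ZMod p), (0 : Fin 2))) (e (1, 0))
      (fun h => zero_ne_one (congrArg Prod.fst (e.injective h)))
    obtain ⟨u₁, hu₁, hcu₁, -⟩ := hpair (e ((0 : ZMod p), (1 : Fin 2))) (e (1, 1))
      (fun h => zero_ne_one (congrArg Prod.fst (e.injective h)))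
    have hopp : E a₀ u₁ = -E a₀ u₀ := by
      have := hj0 1 one_ne_zero
      rw [hcu₀, hcu₁]
      linarith
    have hdich : ∀ b, b ≠ a₀ → b ∈ orbit (stabilizer G a₀) u₀ ∨ b ∈ orbit (stabilizer G a₀) u₁ := by
      intro b hb
      rcases lt_or_gt_of_ne (mul_ne_zero (hnz u₀ hu₀) (hnz b hb)) with h | h
      · exact Or.inr (hsame u₁ b hu₁ hb (by rw [hopp]; linarith))
      · exact Or.inl (hsame u₀ b hu₀ hb h)
    have hone : ∀ b, b ≠ a₀ → ∀ j, j ≠ 0 → tau e (orbital G a₀ b) j = 1 := by
      intro b hb j hj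
      have hsum0 := hj0 j hj
      unfold tau
      rcases orbital_cases (G := G) a₀ b (e (0, 0)) (e (j, 0)) with h0 | ⟨h0, -⟩ <;>
      rcases orbital_cases (G := G) a₀ b (e (0, 1)) (e (j, 1)) with h1 | ⟨h1, -⟩
      · exfalso
        obtain ⟨v₀, hv₀, hcv₀, hov₀⟩ := hpair (e ((0 : ZMod p), (0 : Fin 2))) (e (j, 0))
          (fun h => hj (congrArg Prod.fst (e.injective h)).symm)
        obtain ⟨v₁, hv₁, hcv₁, hov₁⟩ := hpair (e ((0 : ZMod p), (1 : Fin 2))) (e (j, 1))
          (fun h => hj (congrArg Prod.fst (e.injective h)).symm)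
        have key : ∀ v u w, orbital G a₀ v u w = 1 → v ∈ orbit (stabilizer G a₀) b →
            orbital G a₀ b u w = 1 := by
          rintro v u w hvw ⟨k, rfl⟩
          obtain ⟨-, g, hg1, hg2⟩ := (orbital_cases (G := G) a₀ _ u w).resolve_left
            (by rw [hvw]; exact one_ne_zero)
          exact orbital_eq_one (g * (k : G)) (by rw [mul_smul, k.2, hg1])
            (by rw [mul_smul]; exact hg2)
        rcases lt_or_gt_of_ne (mul_ne_zero (hnz b hb) (hnz v₀ hv₀)) with h | h
        · have hop : E a₀ v₁ = -E a₀ v₀ := by rw [hcv₀, hcv₁]; linarith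
          have := key v₁ _ _ hov₁ (hsame b v₁ hb hv₁ (by rw [hop]; linarith))
          rw [h1] at this
          exact zero_ne_one this
        · have := key v₀ _ _ hov₀ (hsame b v₀ hb hv₀ h)
          rw [h0] at this
          exact zero_ne_one this
      · rw [h0, h1, zero_add]
      · rw [h0, h1, add_zero]
      · exfalso
        have e0 := hval b _ _ (by rw [h0]; exact one_ne_zero : _ ≠ (0 : ℚ))
        have e1 := hval b _ _ (by rw [h1]; exact one_ne_zero : _ ≠ (0 : ℚ))
        rw [e0, e1] at hsum0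
        exact hnz b hb (by linarith)
    have heqs : ∀ b, b ≠ a₀ →
        (d b : ℚ) = x b + 2 * x b * x b ∧ (p : ℚ) = 2 * x b * x b + 2 * x b + 1 := by
      intro b hb
      have hcnt : ∀ f : ZMod p → ℚ, f 0 = 0 → (∀ j, j ≠ 0 → f j = 1) → ∑ j, f j = p - 1 := by
        intro f hf0 hf1
        rw [← Finset.sum_erase Finset.univ hf0, Finset.sum_congr rfl fun j hj =>
          hf1 j (Finset.ne_of_mem_erase hj), Finset.sum_const, Finset.card_erase_of_mem
          (Finset.mem_univ _), Finset.card_univ, ZMod.card, nsmul_eq_mul, mul_one,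
          Nat.cast_sub hp.one_le, Nat.cast_one]
      have h1 := (hcnt _ (htau0 b hb) (hone b hb)).symm.trans (hsum b)
      have h2 := (hcnt (fun j => tau e (orbital G a₀ b) j * tau e (orbital G a₀ b) j)
        (by simp only [htau0 b hb, mul_zero]) (fun j hj => by simp only [hone b hb j hj, mul_one])
        ).symm.trans (hsq b hb)
      constructor <;> linarith
    -- the integer root
    have hint : ∀ b, b ≠ a₀ → x b = (((p : ℤ) - 1 - d b : ℤ) : ℚ) := fun b hb => by
      obtain ⟨h1, h2⟩ := heqs b hb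
      push_cast
      linarith
    obtain ⟨w, hw, hwpos⟩ : ∃ w, w ≠ a₀ ∧ 0 < E a₀ w := by
      rcases lt_or_gt_of_ne (hnz u₀ hu₀) with h | h
      · exact ⟨u₁, hu₁, by rw [hopp]; linarith⟩
      · exact ⟨u₀, hu₀, h⟩
    have hxw : 0 < x w := by
      rw [hxc]
      exact mul_pos (mul_pos two_pos (Nat.cast_pos.2 (hd0 w))) hwpos
    obtain ⟨a, ha⟩ : ∃ a : ℕ, x w = a := by
      refine ⟨((p : ℤ) - 1 - d w).toNat, ?_⟩
      rw [hint w hw] at hxw
      have h0 : (0 : ℤ) < (p : ℤ) - 1 - d w := by exact_mod_cast hxw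
      rw [hint w hw]
      exact_mod_cast (Int.toNat_of_nonneg h0.le).symm
    rw [ha] at hxw
    have hpa : (p : ℚ) = 2 * (a : ℚ) * a + 2 * a + 1 := by rw [← ha]; exact (heqs w hw).2
    refine ⟨?_, a, Nat.cast_pos.1 hxw, ?_, fun b hb => ?_⟩
    · have hne01 : u₁ ∉ orbit (stabilizer G a₀) u₀ := by
        rintro ⟨k, hk⟩
        have : E a₀ u₁ = E a₀ u₀ := by
          rw [← hk]
          show E a₀ ((k : G) • u₀) = _
          have hEk := hEi (k : G) a₀ u₀
          rwa [show (k : G) • a₀ = a₀ from k.2] at hEk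
        exact hnz u₀ hu₀ (by linarith)
      have hfix : ∀ b, b ≠ a₀ → a₀ ∉ orbit (stabilizer G a₀) b := by
        rintro b hb ⟨k, hk⟩
        exact hb (MulAction.injective (k : G) (hk.trans (mem_stabilizer_iff.1 k.2).symm))
      let mk : α → orbitRel.Quotient (stabilizer G a₀) α := Quotient.mk''
      have hmk : ∀ u v, mk u = mk v ↔ u ∈ orbit (stabilizer G a₀) v := fun u v => Quotient.eq''
      rw [← Set.ncard_univ, Set.ncard_eq_three]
      refine ⟨mk a₀, mk u₀, mk u₁, fun h => hfix u₀ hu₀ ((hmk _ _).1 h),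
        fun h => hfix u₁ hu₁ ((hmk _ _).1 h), fun h => hne01 ((hmk _ _).1 h.symm),
        Set.eq_of_subset_of_subset (fun q _ => ?_) (Set.subset_univ _)⟩
      induction q using Quotient.inductionOn' with
      | _ z =>
        by_cases hz : z = a₀
        · exact Or.inl (by rw [hz])
        rcases hdich z hz with h | h
        · exact Or.inr (Or.inl ((hmk _ _).2 h))
        · exact Or.inr (Or.inr ((hmk _ _).2 h))
    · have : ((p : ℕ) : ℚ) = ((2 * a ^ 2 + 2 * a + 1 : ℕ) : ℚ) := by
        push_cast
        linear_combination hpa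
      exact_mod_cast this
    · obtain ⟨h1, h2⟩ := heqs b hb
      have hroot : (x b - a) * (x b + a + 1) = 0 := by linear_combination (hpa - h2) / 2
      rcases mul_eq_zero.1 hroot with h | h
      · left
        have : ((d b : ℕ) : ℚ) = ((a * (2 * a + 1) : ℕ) : ℚ) := by
          push_cast
          rw [h1, sub_eq_zero.1 h]
          ring
        exact_mod_cast this
      · right
        have : ((d b : ℕ) : ℚ) = (((a + 1) * (2 * a + 1) : ℕ) : ℚ) := by
          push_cast
          rw [h1, show x b = -(a : ℚ) - 1 by linarith]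
          ring
        exact_mod_cast this
  · -- doubly transitive
    left
    let J : Matrix α α ℚ := Matrix.of fun _ _ => 1
    let D : Matrix α α ℚ := 1 - (2 * p : ℚ)⁻¹ • J - E
    have hEJ : E * J = 0 := by ext x y; simp [J, Matrix.mul_apply, hErow]
    have hJE : J * E = 0 := by
      ext x y
      simp only [J, Matrix.mul_apply, Matrix.of_apply, one_mul, Matrix.zero_apply]
      exact (col_sum hEi y).trans hE0
    have hJJ : J * J = (2 * p : ℚ) • J := by ext x y; simp [J, Matrix.mul_apply, hnQ]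
    have hD : D = 0 := by
      refine eq_zero_of_trace_eq_zero ?_ ?_ ?_
      · ext x y
        by_cases hxy : x = y
        · subst hxy; rfl
        · simp [D, J, Matrix.one_apply_ne hxy, Matrix.one_apply_ne (Ne.symm hxy), hEsym x y]
      · simp only [D, sub_mul, mul_sub, one_mul, mul_one, Matrix.smul_mul, Matrix.mul_smul, hEJ,
          hJE, hJJ, hEE, smul_zero, smul_smul]
        rw [show (2 * p : ℚ)⁻¹ * ((2 * p : ℚ)⁻¹ * (2 * p : ℚ)) = (2 * p : ℚ)⁻¹ by field_simp]
        abel
      · simp only [D, Matrix.trace_sub, Matrix.trace_smul, Matrix.trace_one, htrE, hnQ, hEt0]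
        simp [J, Matrix.trace, hnQ]
        field_simp
        ring
    have hall : ∀ b, b ≠ a₀ → ∀ u v, u ≠ v → ∃ g : G, g • a₀ = u ∧ g • b = v := by
      intro b hb u v huv
      have hA := orbital_inv (G := G) a₀ b
      have hEeq : E = 1 - (2 * p : ℚ)⁻¹ • J := (sub_eq_zero.1 hD).symm
      have h := (hEM _ hA).1
      rw [hEeq] at h
      have hent : ∀ s t, s ≠ t → orbital G a₀ b s t
          = rowSum e (orbital G a₀ b) * (2 * p : ℚ)⁻¹
            - theta e (orbital G a₀ b) * (2 * p : ℚ)⁻¹ := by
        intro s t hst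
        have h' := congrFun (congrFun h s) t
        simp only [mul_sub, mul_one, Matrix.sub_apply, Matrix.mul_smul, Matrix.smul_apply,
          Matrix.mul_apply, J, Matrix.of_apply, Matrix.one_apply_ne hst, smul_eq_mul,
          row_sum (e := e) hA] at h'
        simp only [Finset.sum_sub_distrib, ← Finset.sum_mul, row_sum (e := e) hA, Matrix.one_apply,
          mul_ite, mul_one, mul_zero, Finset.sum_ite_eq', Finset.mem_univ, if_true] at h'
        linarith
      have h1 : orbital G a₀ b u v = 1 := by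
        rw [hent u v huv, ← hent a₀ b (Ne.symm hb), orbital_eq_one (1 : G) (one_smul _ _) (one_smul _ _)]
      exact ((orbital_cases (G := G) a₀ b u v).resolve_left (by rw [h1]; exact one_ne_zero)).2
    rw [is_two_pretransitive_iff]
    intro u v u' v' huv huv'
    obtain ⟨b, hb⟩ : ∃ b, b ≠ a₀ := by
      haveI : Nontrivial α := ⟨⟨u, v, huv⟩⟩
      exact exists_ne a₀
    obtain ⟨g, hg1, hg2⟩ := hall b hb u v huv
    obtain ⟨g', hg1', hg2'⟩ := hall b hb u' v' huv'
    exact ⟨g' * g⁻¹, by rw [mul_smul, ← hg1, inv_smul_smul, hg1'],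
      by rw [mul_smul, ← hg2, inv_smul_smul, hg2']⟩

end Cfsg.Agent.PermB.TwoP
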