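import Cfsg.Agent.PermB.TwoPrime.Alg
import Mathlib.Algebra.BigOperators.Pi
import Mathlib.Data.Fintype.BigOperators

/-! Invariant matrices in cycle coordinates. -/

set_option autoImplicit false

open Matrix MulAction

namespace Cfsg.Agent.PermB.TwoP

variable (G : Type*) {α : Type*} [Group G] [MulAction G α] {p : ℕ} [Fact p.Prime]

/-- Invariance under the group. -/
def Inv (M : Matrix α α ℚ) : Prop := ∀ (g : G) x y, M (g • x) (g • y) = M x y

/-- An element with two cycles of length `p` and no other points. -/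
def Coords (e : ZMod p × Fin 2 ≃ α) : Prop :=
  ∀ k : ZMod p, ∃ g : G, ∀ j a, g • e (j, a) = e (j + k, a)

variable {G} (e : ZMod p × Fin 2 ≃ α)

/-- The signed vector of the two cycles. -/
def sgn (x : α) : ℚ := if (e.symm x).2 = 0 then 1 else -1

/-- The eigenvalue on the signed vector. -/
def theta (M : Matrix α α ℚ) : ℚ :=
  (∑ j, M (e (0, 0)) (e (j, 0))) - ∑ j, M (e (0, 0)) (e (j, 1))

/-- The constant row sum. -/
def rowSum (M : Matrix α α ℚ) : ℚ :=
  (∑ j, M (e (0, 0)) (e (j, 0))) + ∑ j, M (e (0, 0)) (e (j, 1))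

/-- The sum of the two cycle diagonals. -/
def tau (M : Matrix α α ℚ) (j : ZMod p) : ℚ :=
  M (e (0, 0)) (e (j, 0)) + M (e (0, 1)) (e (j, 1))

/-- The Fourier block at a root of unity. -/
noncomputable def four (ζ : ℂ) (M : Matrix α α ℚ) : Matrix (Fin 2) (Fin 2) ℂ :=
  Matrix.of fun a b => ∑ j : ZMod p, (M (e (0, a)) (e (j, b)) : ℂ) * ζ ^ j.val

variable {e} {M N : Matrix α α ℚ}

theorem sum_points [Fintype α] {R : Type*} [AddCommMonoid R] (f : α → R) :
    ∑ x, f x = ∑ j, (f (e (j, 0)) + f (e (j, 1))) := by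
  rw [← Equiv.sum_comp e, Fintype.sum_prod_type]
  exact Finset.sum_congr rfl fun j _ => Fin.sum_univ_two _

theorem shift (hc : Coords G e) (hM : Inv G M) (i j k : ZMod p) (a b : Fin 2) :
    M (e (i + k, a)) (e (j + k, b)) = M (e (i, a)) (e (j, b)) := by
  obtain ⟨g, hg⟩ := hc k
  rw [← hg, ← hg, hM]

theorem shift_zero (hc : Coords G e) (hM : Inv G M) (i j : ZMod p) (a b : Fin 2) :
    M (e (i, a)) (e (j, b)) = M (e (0, a)) (e (j - i, b)) := by
  have h := shift hc hM 0 (j - i) i a b
  rwa [zero_add, sub_add_cancel] at h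

theorem row_block (hc : Coords G e) (hM : Inv G M) (i : ZMod p) (a b : Fin 2) :
    ∑ j, M (e (i, a)) (e (j, b)) = ∑ j, M (e (0, a)) (e (j, b)) := by
  rw [← Equiv.sum_comp (Equiv.addRight i)]
  refine Finset.sum_congr rfl fun j _ => ?_
  have h := shift hc hM 0 j i a b
  rwa [zero_add] at h

theorem col_block (hc : Coords G e) (hM : Inv G M) (a b : Fin 2) :
    ∑ i, M (e (i, a)) (e (0, b)) = ∑ j, M (e (0, a)) (e (j, b)) := by
  rw [← Equiv.sum_comp (Equiv.neg (ZMod p))]
  refine Finset.sum_congr rfl fun j _ => ?_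
  rw [shift_zero hc hM, Equiv.neg_apply, zero_sub, neg_neg]

variable [Fintype α] [IsPretransitive G α]

theorem row_sum (hM : Inv G M) (x : α) : ∑ y, M x y = rowSum e M := by
  obtain ⟨g, rfl⟩ := MulAction.exists_smul_eq G (e (0, 0)) x
  rw [← Equiv.sum_comp (MulAction.toPerm g)]
  simp only [MulAction.toPerm_apply, hM g]
  rw [sum_points (e := e), Finset.sum_add_distrib]
  rfl

theorem col_sum (hM : Inv G M) (y : α) : ∑ x, M x y = rowSum e M := by
  have hconst : ∀ z, ∑ x, M x z = ∑ x, M x y := by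
    intro z
    obtain ⟨g, rfl⟩ := MulAction.exists_smul_eq G y z
    rw [← Equiv.sum_comp (MulAction.toPerm g)]
    simp only [MulAction.toPerm_apply, hM g]
  have htot : ∑ x, ∑ z, M x z = ∑ z, ∑ x, M x z := Finset.sum_comm
  simp only [row_sum (e := e) hM, hconst, Finset.sum_const, nsmul_eq_mul] at htot
  exact (mul_left_cancel₀ (Nat.cast_ne_zero.2
    (Finset.card_pos.2 ⟨y, Finset.mem_univ y⟩).ne') htot).symm

theorem blocks (hc : Coords G e) (hM : Inv G M) :
    (∑ j, M (e (0, 1)) (e (j, 0)) = ∑ j, M (e (0, 0)) (e (j, 1))) ∧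
    (∑ j, M (e (0, 1)) (e (j, 1)) = ∑ j, M (e (0, 0)) (e (j, 0))) := by
  have h1 := row_sum (e := e) hM (e (0, 1))
  have h2 := col_sum (e := e) hM (e (0, 0))
  rw [sum_points (e := e), Finset.sum_add_distrib] at h1 h2
  rw [col_block hc hM, col_block hc hM] at h2
  unfold rowSum at h1 h2
  constructor <;> linarith

theorem theta_eq (hc : Coords G e) (hM : Inv G M) (x : α) :
    ∑ y, M x y * sgn e y = theta e M * sgn e x := by
  obtain ⟨⟨i, a⟩, rfl⟩ := e.surjective x
  obtain ⟨hb0, hb1⟩ := blocks hc hM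
  rw [sum_points (e := e)]
  simp only [sgn, e.symm_apply_apply, one_ne_zero, if_false, if_true, mul_one, mul_neg,
    Finset.sum_add_distrib, Finset.sum_neg_distrib, row_block hc hM i]
  unfold theta
  fin_cases a <;> simp [hb0, hb1] <;> ring

omit [IsPretransitive G α] in
theorem sum_sgn : ∑ x, sgn e x = 0 := by
  rw [sum_points (e := e)]
  simp [sgn]

theorem sgn_sq (x : α) : sgn e x * sgn e x = 1 := by
  unfold sgn
  split_ifs <;> norm_num

theorem inv_mul (hM : Inv G M) (hN : Inv G N) : Inv G (M * N) := by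
  intro g x y
  simp only [Matrix.mul_apply]
  rw [← Equiv.sum_comp (MulAction.toPerm g)]
  simp only [MulAction.toPerm_apply, hM g, hN g]

omit [Fintype α] [IsPretransitive G α] in
theorem inv_transpose (hM : Inv G M) : Inv G Mᵀ := fun g x y => hM g y x

theorem theta_transpose (hc : Coords G e) (hM : Inv G M) : theta e Mᵀ = theta e M := by
  unfold theta
  simp only [Matrix.transpose_apply]
  rw [col_block hc hM, col_block hc hM, (blocks hc hM).1]

theorem rowSum_transpose (hM : Inv G M) : rowSum e Mᵀ = rowSum e M := by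
  rw [← row_sum (inv_transpose hM) (e (0, 0))]
  exact col_sum hM _

theorem theta_mul (hc : Coords G e) (hM : Inv G M) (hN : Inv G N) :
    theta e (M * N) = theta e M * theta e N := by
  have h := theta_eq hc (inv_mul hM hN) (e (0, 0))
  simp only [Matrix.mul_apply, Finset.sum_mul] at h
  rw [Finset.sum_comm] at h
  simp only [mul_assoc, ← Finset.mul_sum, theta_eq hc hN] at h
  simp only [← mul_assoc, mul_comm _ (theta e N)] at h
  simp only [mul_assoc, ← Finset.mul_sum, theta_eq hc hM] at h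
  simp only [sgn, e.symm_apply_apply, if_true, mul_one] at h
  linarith

theorem rowSum_mul (hM : Inv G M) (hN : Inv G N) :
    rowSum e (M * N) = rowSum e M * rowSum e N := by
  rw [← row_sum (inv_mul hM hN) (e (0, 0))]
  simp only [Matrix.mul_apply]
  rw [Finset.sum_comm]
  simp only [← Finset.mul_sum, row_sum (e := e) hN, ← Finset.sum_mul, row_sum (e := e) hM]

theorem sum_tau (hc : Coords G e) (hM : Inv G M) :
    ∑ j, tau e M j = rowSum e M + theta e M := by
  simp only [tau, Finset.sum_add_distrib, (blocks hc hM).2]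
  unfold rowSum theta
  ring

theorem pow_val_add {ζ : ℂ} (hζ : IsPrimitiveRoot ζ p) (i j : ZMod p) :
    ζ ^ (i + j).val = ζ ^ i.val * ζ ^ j.val := by
  rw [← pow_add, ZMod.val_add]
  exact (pow_eq_pow_mod _ hζ.pow_eq_one).symm

theorem four_mul {ζ : ℂ} (hζ : IsPrimitiveRoot ζ p) (hc : Coords G e) (hN : Inv G N) :
    four e ζ (M * N) = four e ζ M * four e ζ N := by
  ext a b
  simp only [four, Matrix.of_apply, Matrix.mul_apply, sum_points (e := e), Fin.sum_univ_two,
    Rat.cast_sum, Rat.cast_add, Rat.cast_mul, Finset.sum_mul, Finset.mul_sum, add_mul]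
  rw [← Finset.sum_add_distrib, Finset.sum_comm]
  conv_rhs => simp only [← Finset.sum_add_distrib]; rw [Finset.sum_comm]
  refine Finset.sum_congr rfl fun i _ => ?_
  rw [← Equiv.sum_comp (Equiv.addLeft i)]
  refine Finset.sum_congr rfl fun j _ => ?_
  simp only [Equiv.coe_addLeft, pow_val_add hζ, shift_zero hc hN i, add_sub_cancel_left]
  ring

theorem trace_four (ζ : ℂ) :
    (four e ζ M).trace = ∑ j, (tau e M j : ℂ) * ζ ^ j.val := by
  simp only [Matrix.trace_fin_two, four, Matrix.of_apply, tau, Rat.cast_add, add_mul,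
    Finset.sum_add_distrib]

theorem four_smul (ζ : ℂ) (c : ℚ) : four e ζ (c • M) = (c : ℂ) • four e ζ M := by
  ext a b
  simp only [four, Matrix.of_apply, Matrix.smul_apply, smul_eq_mul, Rat.cast_mul, Finset.mul_sum,
    mul_assoc]

theorem eq_of_sum_eq {ζ : ℂ} (hζ : IsPrimitiveRoot ζ p) (f : ZMod p → ℚ) (r : ℚ)
    (h : ∑ j, (f j : ℂ) * ζ ^ j.val = r) :
    f 0 = r + ((∑ j, f j) - r) / p ∧ ∀ j, j ≠ 0 → f j = ((∑ j, f j) - r) / p := by
  classical
  have hc := coeff_eq_of_sum_eq_zero hζ (fun j => f j - if j = 0 then r else 0) (by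
    simp only [Rat.cast_sub, sub_mul, Finset.sum_sub_distrib, h]
    rw [Finset.sum_eq_single 0]
    · simp
    · intro j _ hj; simp [hj]
    · intro h0; exact absurd (Finset.mem_univ _) h0)
  have hsum : (∑ j, f j) - r = p * (f 0 - r) := by
    calc (∑ j, f j) - r = ∑ j : ZMod p, (f j - if j = 0 then r else 0) := by
          rw [Finset.sum_sub_distrib, Finset.sum_ite_eq' Finset.univ (0 : ZMod p) fun _ => r,
            if_pos (Finset.mem_univ _)]
      _ = ∑ _j : ZMod p, (f 0 - r) := Finset.sum_congr rfl fun j _ => by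
          have := hc j; simpa using this
      _ = p * (f 0 - r) := by rw [Finset.sum_const, Finset.card_univ, ZMod.card, nsmul_eq_mul]
  have hp : (p : ℚ) ≠ 0 := Nat.cast_ne_zero.2 (Fact.out : p.Prime).ne_zero
  rw [hsum, mul_div_cancel_left₀ _ hp]
  refine ⟨by ring, fun j hj => ?_⟩
  have := hc j
  simpa [hj] using this

/-- A shift invariant product formula for the cycle diagonals. -/
theorem tau_mul {ζ : ℂ} (hζ : IsPrimitiveRoot ζ p) (hc : Coords G e) {E : Matrix α α ℚ}
    (hE : Inv G E) (hEE : E * E = E) (hEt : (four e ζ E).trace = 1)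
    (hM : Inv G M) (hN : Inv G N) (hME : M * E = theta e M • E) (hEM : E * M = theta e M • E)
    (hNE : N * E = theta e N • E) (hEN : E * N = theta e N • E) :
    tau e (M * N) 0 = ∑ i, tau e M i * tau e N (-i) - theta e N * tau e M 0
      - theta e M * tau e N 0 + 2 * theta e M * theta e N := by
  classical
  set x := theta e M
  set y := theta e N
  set Q := four e ζ E with hQ
  have hQQ : Q * Q = Q := by rw [hQ, ← four_mul hζ hc hE, hEE]
  have hm := eq_smul_add hQQ hEt (x := (x : ℂ)) (M := four e ζ M)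
    (by rw [hQ, ← four_mul hζ hc hE, hME, four_smul])
    (by rw [hQ, ← four_mul hζ hc hM, hEM, four_smul])
  have hn := eq_smul_add hQQ hEt (x := (y : ℂ)) (M := four e ζ N)
    (by rw [hQ, ← four_mul hζ hc hE, hNE, four_smul])
    (by rw [hQ, ← four_mul hζ hc hN, hEN, four_smul])
  set s := (four e ζ M).trace with hs
  set t := (four e ζ N).trace with ht
  have hprod : (four e ζ (M * N)).trace = x * y + (s - x) * (t - y) := by
    rw [four_mul hζ hc hN]
    conv_lhs => rw [hm, hn]
    have h1 : Q * (1 - Q) = 0 := by rw [mul_sub, mul_one, hQQ, sub_self]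
    have h2 : (1 - Q) * Q = 0 := by rw [sub_mul, one_mul, hQQ, sub_self]
    have h3 : (1 - Q) * (1 - Q) = 1 - Q := by rw [mul_sub, mul_one, h2, sub_zero]
    simp only [add_mul, mul_add, Matrix.smul_mul, Matrix.mul_smul, hQQ, h1, h2, h3, smul_zero,
      add_zero, zero_add, smul_smul, Matrix.trace_add, Matrix.trace_smul, Matrix.trace_sub, hEt]
    simp [Matrix.trace_one]
    ring
  let F : ZMod p → ℚ := fun j =>
    tau e (M * N) j - ∑ i, tau e M i * tau e N (j - i) + y * tau e M j + x * tau e N j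
  have hconv : ∑ j : ZMod p, ((∑ i, tau e M i * tau e N (j - i) : ℚ) : ℂ) * ζ ^ j.val = s * t := by
    rw [hs, ht, trace_four, trace_four, Finset.sum_mul_sum]
    simp only [Rat.cast_sum, Rat.cast_mul, Finset.sum_mul]
    rw [Finset.sum_comm]
    refine Finset.sum_congr rfl fun i _ => ?_
    rw [← Equiv.sum_comp (Equiv.addLeft i)]
    refine Finset.sum_congr rfl fun j _ => ?_
    simp only [Equiv.coe_addLeft, pow_val_add hζ, add_sub_cancel_left]
    ring
  have hFz : ∑ j, (F j : ℂ) * ζ ^ j.val = ((2 * x * y : ℚ) : ℂ) := by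
    simp only [F, Rat.cast_add, Rat.cast_sub, Rat.cast_mul, add_mul, sub_mul,
      Finset.sum_add_distrib, Finset.sum_sub_distrib, mul_assoc, ← Finset.mul_sum, hconv,
      ← trace_four, hprod, ← hs, ← ht]
    push_cast
    ring
  have hFs : ∑ j, F j = 2 * x * y := by
    have hshift : ∀ i, ∑ j, tau e N (j - i) = ∑ j, tau e N j := fun i =>
      Equiv.sum_comp (Equiv.subRight i) (tau e N)
    have hcv : ∑ j, ∑ i, tau e M i * tau e N (j - i) = (∑ i, tau e M i) * ∑ j, tau e N j := by
      rw [Finset.sum_comm, Finset.sum_mul]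
      exact Finset.sum_congr rfl fun i _ => by rw [← Finset.mul_sum, hshift]
    simp only [F, Finset.sum_add_distrib, Finset.sum_sub_distrib, hcv, ← Finset.mul_sum,
      sum_tau hc hM, sum_tau hc hN, sum_tau hc (inv_mul hM hN), rowSum_mul hM hN,
      theta_mul hc hM hN]
    ring
  have h0 := (eq_of_sum_eq hζ F _ hFz).1
  rw [hFs, sub_self, zero_div, add_zero] at h0
  simp only [F, zero_sub] at h0
  linarith

end Cfsg.Agent.PermB.TwoP
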